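import Mathlib
import Cfsg.Agent.Lib.Helper56.TC

set_option autoImplicit false
set_option maxRecDepth 1000000

namespace Cfsg.Agent.Lib.Helper56.ME7U5

open Cfsg.Agent.Lib.Helper56.TC Cfsg.Agent.Lib.Helper56.TC.Tabs

noncomputable def nA0 : List ℕ := [
0x53ec45dc37cc29bc1fac040bf0191734fb14def4cad40810041be06ad5629d2274e0101808288ca7c14688b638302020104347b1873f836e2d404020206a0c476b43ea5f0880800040995255d0508e498c7e148080c7844408408c3d1039947c00]

noncomputable def fA0 : List ℕ := [
0x36db5b470b6d9a43a648ec6d626d46d276d1692265408924013480000000]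

end Cfsg.Agent.Lib.Helper56.ME7U5
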